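import Cfsg.Agent.QTNorm.SporHS
import Cfsg.Agent.QTUnique.HS

/-!
# The Sylow 2-subgroup of `HS` on 100 points (helper5)

Masks `m < 2^11` for the elements of the Sylow 2-subgroup `S` of `2.HS.2`: `nf m 11 = ∏ s i`, `i` in the binary expansion
of `m`; `im m 11 p` is the image of the point `p`. The elements of the Sylow 2-subgroup of `HS` (even masks at bits 8, 9, 10)
which commute with all their conjugates and have square 1 are the 8 elements of the masks in `EL`.
-/

set_option autoImplicit false
set_option maxRecDepth 100000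

namespace Cfsg.Agent.H5.HS.Tab

open Cfsg Cfsg.Agent.HN Cfsg.Agent.HN.Pres Cfsg.Agent.HN.HS100 Cfsg.Agent.HN.H0Basic Cfsg.Agent.HN.P1408
open Cfsg.Agent.HN.Classes Cfsg.Agent.HN.PC Equiv
open Cfsg.Agent.SporadicA.PermTab (lk)

/-- tables of the polycyclic generators -/
def tb (k : ℕ) : ℕ :=
  match k with
  | 0 => 0xc6188308600be1782e85c0b61682c8580ae1582a8540a61482885009e1382684c0961282484808e118228440861082084007e0f81e83c0760e81c83806e0d81a8340660c81883005e0b81682c0560a81482804e098128240460881082003e0780e81c0360680c81802e0580a8140260480881001e0380680c0160280480800e0180280400600800800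
  | 1 => 0x98188308580b6178160290be0e82c8600ae0b82a8540500fc1201809e05c268630921282584803c0ec1e81208609c208110a40542283108c1681c82106802c110370660281e00905e1580d85d05607c2e053084014098510340d41c00805411c0780305a08c0c85009c0081f00e04a1102000103a0500680006c0c81802000e010130060380580800c
  | 2 => 0x981883082206215c2e8180780d02c8350bc00c2a83906403c0002909e084240630921282584d03c1180d01f0860201581b03a0981185b0760dc2a0170740502c05a06614c2f80605e0700882c0820482800a0400f81280c07a1802702708811c1f82e0801140c85c070058028360260a8168010a402c0682401c0a00204200e0c00a8090ac00808051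
  | 3 => 0x20188308170a0178128310300002504e0ae054068540401001b85b0661802400108e1640f04d092008070060860c81583f0221580a05c02c0301c8350480681085109e09c1482a0320f8078130820241e00801400c1603406c0e01102806012c1682603a02c1785f0b0118170450ba0102904c0360f42a85a0461080f85300e0480e04400a0ec3183a
  | 4 => 0x3c1883084e0b61781d85c0be0902c8170ae0f80683904e03c1d05009e18026847002128080480980b00d0440860a01582d03a158118310ba1442a0350000381c00c0660801e009032054200460820a8148420a600c0105a07a0841103203e18c1f805022114178180b004c1700b02c0480d8490a40d82a8340280201800a00e0100e00604c09425837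
  | 5 => 0x981843101503e1782e8040540282c83e0ae1382a85406e02c0403009e158240630961282484d08e0ec1683100e0001582306c1600d81208c0c81c81c0a60fc130280660e82205005e05c2282c08216c030340180d412820080014018240be0780a03807a0440c80905c0083001d0260f00d00101c03c068270a41680c0510860a41105c04205808042
  | 6 => 0x981883085a06c0e40983d0160d41983a0a809c1785e02a1102701a0940302086309613c2482b08e0080c01d08600c240060240c82800e02c0882b8510c00f01b8580b20140a0110aa1080482509a1482283e03814c2e8170520d01202e07e07815008060170068230001180505b05803c0200103e17c0c8380620982005600e0b41401b0400ec08021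
  | 7 => 0x581883082e0b61782605c0be0a02c8560ae1602a8390740b4138180660542685d0041280b0480760781b01200e0902080f03605c0583c08e14c2a0050141140e03209e0d018830032180290630560a81485a0a20840084202800c1300c03e1180883507e0381785007c124270230201100e8130800680682007a0dc048000860101c00604412c12808
  | 8 => 0x581883084e0b6178260290be0e82c8170ae0f82a854050044120500661802685d02c128010480760780701208609c1583f0801580a03c08e1681c82206e0681083409e0c8188090320540e8630820a82e053084070080510160e01a82003e1181682601e0d8178180b012c1703d002110290250361140680c0460281800800e0180180400a12409800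
  | 9 => 0x20188308420b81340b03105200c250270901680c82b0421001305b06614c2b80108e1640f05e09204c0700600e0882a00f0221440a05004a0702080a05c0f41005609e1380c04401a0e81f8020720241e03806a0001d80506c0201905806012c168370a402c2a85f0501741202308c0100e84c0360681781508a05c0906008607c0602a0680b03183e
  | _ => 0x201c2183c06a1781604e0440d80c8310ae0102783901e0c81e8380aa170158100920bc2584108e0081203e0c2100240420141102886002c02c2a05001c1682f81401a1482c01c0940181005d09a0140b81d02207c1284500016c0c02d04c078140300100302c8210520ec090340260541384c0a60dc1981a0740fc0181b0c40b81505601211831823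

/-- `s 4`, inverse -/
def t4i : ℕ := 0x3c1883084e0b61781d85c0be0902c8170ae0f80683904e03c1d05009e18026847002128080480980b00d0440860a01582d03a158118310ba1442a0350000381c00c0660801e009032054200460820a8148420a600c0105a07a0841103203e18c1f805022114178180b004c1700b02c0480d8490a40d82a8340280201800a00e0100e00604c09425837
/-- `s 9 * s 10` -/
def t9 : ℕ := 0xc610c03850040134010530100f42a8180900a8198410361380a00a0320c41c84c03c034238540920b0028510c203c2f02202e018130420ba1141585b03400c2e02305e100138370b207c2c0160ae0301402d03a0c01d80e07c0a42f83f00012c1c0440c0054250320780940205608c0901a8010420b82780b0380441a0520c40e80485a02404c08036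
/-- inverse -/
def t9i : ℕ := 0xc601c2181b0421041d8350700101782d0560502c8480b80202206001a1482f04c03c0642385709204c1d01c0c40f02a03204008c2d01704a0182681d060000088090aa0602702606603814046072158110290620f40b0120681000785f05c12c1380b0a60dc2785807e0b00d05100400c050010840902502a0181400285b0c20f82281506c1740801f

theorem tb_eq : ∀ k < 11, ∀ i < 100, t1 (Syl.sw k) i = lk (tb k) i := by decide +kernel

/-- the point `p` under the element of mask `m` -/
def im (m : ℕ) : ℕ → ℕ → ℕ
  | 0, p => p
  | n + 1, p => im m n (bif m.testBit n then lk (tb n) p else p)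

/-- the element of mask `m` -/
noncomputable def nf (m : ℕ) : ℕ → H0
  | 0 => 1
  | n + 1 => nf m n * (bif m.testBit n then Syl.s n else 1)

/-- parity at the bits 8, 9, 10 -/
def pm (m : ℕ) : Bool := (m.testBit 8).xor ((m.testBit 9).xor (m.testBit 10))

theorem φ_s {k : ℕ} (hk : k < 11) (i : Fin 100) : ((φ (Syl.s k) i : Fin 100) : ℕ) = lk (tb k) i := by
  rw [Syl.s, φ_hw_apply]
  exact tb_eq k hk i i.2

theorem φ_nf (m : ℕ) {n : ℕ} (hn : n ≤ 11) (i : Fin 100) : ((φ (nf m n) i : Fin 100) : ℕ) = im m n i := by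
  induction n generalizing i with
  | zero => rw [nf, map_one]; rfl
  | succ n ih =>
    rw [nf, im, map_mul, Perm.mul_apply, ih (by omega)]
    congr 1
    cases m.testBit n
    · rw [cond_false, cond_false, map_one]; rfl
    · rw [cond_true, cond_true, φ_s (by omega)]

theorem nf_add (m n j : ℕ) (hj : j ≤ n) : nf (2 ^ n + m) j = nf m j := by
  induction j with
  | zero => rfl
  | succ j ih => rw [nf, nf, ih (by omega), Nat.testBit_two_pow_add_gt (by omega)]

theorem nf_lt {m n : ℕ} (h : m < 2 ^ n) : nf m (n + 1) = nf m n := by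
  rw [nf, Nat.testBit_lt_two_pow h, cond_false, mul_one]

theorem exists_nf {n : ℕ} (hn : n ≤ 11) {g : H0} (hg : g ∈ Syl.P n) : ∃ m < 2 ^ n, g = nf m n := by
  induction n generalizing g with
  | zero =>
    refine ⟨0, by norm_num, ?_⟩
    have h : g ∈ (⊥ : Subgroup H0) := by rw [← Pc_zero Syl.s]; exact hg
    exact Subgroup.mem_bot.1 h
  | succ n ih =>
    rcases (Syl.step (k := n) (by omega)).mem hg with h | h
    · obtain ⟨m, hm, h1⟩ := ih (by omega) h
      exact ⟨m, hm.trans_le (Nat.pow_le_pow_right (by norm_num) (by omega)), by rw [nf_lt hm, h1]⟩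
    · obtain ⟨m, hm, h1⟩ := ih (by omega) h
      refine ⟨2 ^ n + m, by rw [pow_succ]; omega, ?_⟩
      rw [nf, nf_add _ _ _ le_rfl, Nat.testBit_two_pow_add_eq, Nat.testBit_lt_two_pow hm, Bool.not_false, cond_true, ← h1,
        inv_mul_cancel_right]

/-! ### parity -/

theorem par_s : ∀ k < 11, okw (Syl.sw k) = true ∧ par (Syl.sw k) = Nat.ble 8 k := by decide +kernel

theorem sgn_s {k : ℕ} (hk : k < 11) : sgn (Syl.s k) = if 8 ≤ k then -1 else 1 := by
  obtain ⟨h1, h2⟩ := par_s k hk
  rw [Syl.s, sgn_hw h1, h2]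
  by_cases h : 8 ≤ k
  · rw [if_pos h, show Nat.ble 8 k = true by simpa using h]
  · rw [if_neg h]
    have : Nat.ble 8 k = false := by
      cases hb : Nat.ble 8 k
      · rfl
      · exact absurd (by simpa using hb) h
    rw [this]

theorem sgn_bit {k : ℕ} (hk : k < 11) (b : Bool) :
    sgn (bif b then Syl.s k else 1) = if b = true ∧ 8 ≤ k then -1 else 1 := by
  cases b
  · simp
  · rw [cond_true, sgn_s hk]; simp

theorem sgn_nf8 (m : ℕ) {n : ℕ} (hn : n ≤ 8) : sgn (nf m n) = 1 := by
  induction n with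
  | zero => rw [nf, map_one]
  | succ n ih =>
    rw [nf, map_mul, ih (by omega), one_mul, sgn_bit (by omega), if_neg]
    rintro ⟨-, h⟩
    omega

theorem mem_K (m : ℕ) : nf m 11 ∈ K ↔ pm m = false := by
  rw [mem_K_iff, nf, nf, nf, map_mul, map_mul, map_mul, sgn_nf8 m le_rfl, sgn_bit (by norm_num), sgn_bit (by norm_num),
    sgn_bit (by norm_num), pm]
  cases m.testBit 8 <;> cases m.testBit 9 <;> cases m.testBit 10 <;> simp

/-! ### the search -/

/-- the masks of the elements of the elementary abelian group of order 8 -/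
def EL : List ℕ := [0, 2, 4, 6, 32, 34, 36, 38]

/-- the square moves `p` -/
def q2 (m p : ℕ) : Bool := !(Nat.beq (im m 11 (im m 11 p)) p)

/-- `x` and `g x g⁻¹` do not commute, at the point `p`; `g`, `g⁻¹` given by tables -/
def nc (t t' m p : ℕ) : Bool :=
  !(Nat.beq (im m 11 (lk t (im m 11 (lk t' p)))) (lk t (im m 11 (lk t' (im m 11 p)))))

/-- the condition on a mask -/
def chk (m : ℕ) : Bool :=
  pm m || EL.contains m || q2 m 0 || q2 m 1 || nc t9 t9i m 0 || nc (tb 4) t4i m 0

theorem chk_all : ∀ m < 1024, chk (2 * m) = true := by decide +kernel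

theorem tab4 : ∀ i < 100, lk (tb 4) (lk t4i i) = i := by decide +kernel
theorem tab9 : ∀ i < 100, lk t9 (lk t9i i) = i ∧ lk (tb 9) (lk (tb 10) i) = lk t9 i ∧ lk t9i i < 100 := by decide +kernel
theorem tab4' : ∀ i < 100, lk t4i i < 100 := by decide +kernel
theorem tb_lt : ∀ k < 11, ∀ i < 100, lk (tb k) i < 100 := by decide +kernel

theorem tb_zero : ∀ i < 100, lk (tb 0) i = i := by decide +kernel

/-! ### the eight elements -/

theorem EL_mul : ∀ m ∈ EL, ∀ m' ∈ EL, m ^^^ m' ∈ EL ∧ ∀ i < 100, im m 11 (im m' 11 i) = im (m ^^^ m') 11 i := by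
  decide +kernel

theorem EL_ne : ∀ m ∈ EL, ∀ m' ∈ EL, m ≠ m' → im m 11 0 ≠ im m' 11 0 ∨ im m 11 1 ≠ im m' 11 1 ∨ im m 11 2 ≠ im m' 11 2 ∨
    im m 11 3 ≠ im m' 11 3 := by
  decide +kernel

theorem EL_par : ∀ m ∈ EL, pm m = false := by decide +kernel

theorem EL_conj : ∀ m ∈ [32, 34, 36, 38], m ∈ EL ∧ m ^^^ 6 ∈ EL ∧
    ∀ i < 100, lk t9 (im m 11 (lk t9i i)) = im (m ^^^ 6) 11 i := by
  decide +kernel

/-- an element of mask `m` does not commute with the table `t`, at the point `p` -/
def ncm (t m p : ℕ) : Bool := !(Nat.beq (im m 11 (lk t p)) (lk t (im m 11 p)))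

theorem chk_center : ∀ m < 1024, (pm (2 * m) || [0, 1].contains m || ncm t9 (2 * m) 0 || ncm (tb 7) (2 * m) 0) = true := by
  decide +kernel

/-! ### thirty conjugates of `y` in `C(z)` -/

/-- words of elements of `C(z)` -/
def cwd (k : ℕ) : List ℕ :=
  match k with
  | 0 => [2]
  | 1 => [3]
  | 2 => Syl.sw 8 ++ Syl.sw 10
  | 3 => Syl.sw 8 ++ Syl.sw 9
  | 4 => Syl.sw 3
  | 5 => Syl.sw 4
  | 6 => Syl.sw 5
  | 7 => Syl.sw 6
  | _ => Syl.sw 7

/-- paths -/
def paths : List (List ℕ) := [[], [0], [1], [2], [2, 0], [3, 0], [4, 0], [2, 1], [0, 2, 0], [1, 2, 0], [4, 2, 0], [7, 2, 0], [0, 2, 1], [1, 2, 1], [2, 0, 2, 0], [5, 0, 2, 0], [2, 1, 2, 0], [4, 1, 2, 0], [7, 1, 2, 0], [1, 7, 2, 0], [2, 0, 2, 1], [2, 1, 2, 1], [1, 2, 0, 2, 0], [5, 2, 0, 2, 0], [7, 2, 0, 2, 0], [1, 2, 1, 2, 0], [4, 2, 1, 2, 0], [7, 2, 1, 2, 0], [2, 1, 2, 0, 2, 0], [3, 1, 2, 0, 2, 0]]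

/-- codes of the images of the points 0 and 1 -/
def codes : List ℕ := [10384, 71, 10398, 4609, 11595, 4679, 1566, 7115, 1373, 8507, 7497, 6729, 6422, 1061, 37, 6444, 70, 5062, 1282, 4115, 7426, 6749, 4993, 1555, 7084, 4112, 1595, 11542, 8464, 1025]

/-- the word of a path -/
def pwd (l : List ℕ) : List ℕ := l.flatMap cwd

/-- the word of the conjugate -/
def cjw (l : List ℕ) : List ℕ := pwd l ++ (Syl.sw 2 ++ iw (pwd l))

theorem cwd_chk : ∀ k < 9, okw (cwd k) = true ∧ par (cwd k) = false ∧
    ∀ i < 100, t1 (cwd k ++ QTUnique.HS.zw) i = t1 (QTUnique.HS.zw ++ cwd k) i := by decide +kernel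

theorem paths_lt : ∀ l ∈ paths, ∀ k ∈ l, k < 9 := by decide +kernel

theorem codes_eq : paths.map (fun l => t1 (cjw l) 0 * 128 + t1 (cjw l) 1) = codes := by decide +kernel

theorem codes_nodup : codes.Nodup := by decide +kernel

theorem z_chk : ∀ i < 100, t1 QTUnique.HS.zw i = im 2 11 i := by decide +kernel

theorem y_chk : ∀ i < 100, lk (tb 2) i = im 4 11 i := by decide +kernel

/-- conjugates of `y` under the Sylow 2-subgroup -/
theorem y_conj : ∀ k < 11, (∀ i < 100, lk (tb k) (im 4 11 i) = im 4 11 (lk (tb k) i)) ∨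
    (∀ i < 100, lk (tb k) (im 4 11 i) = im 6 11 (lk (tb k) i)) := by decide +kernel

end Cfsg.Agent.H5.HS.Tab
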